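import Cfsg.Agent.Lib.Helper5.O9.Defs
import Cfsg.Agent.Lib.Helper95.OmGlue
import Cfsg.Agent.Lib.Helper49.WittUse
import Cfsg.Agent.Lib.Helper18.OrthOmega
import Cfsg.Agent.Lib.Helper11.AschO.R3

/-! Sub-ladder O9P (S5835), rung INV. -/

set_option autoImplicit false

namespace Cfsg.Agent.Lib.Helper5.O9

open Cfsg Cfsg.Geo QuadraticMap
open Cfsg.Agent.Lib.Helper11.AschO (gram perp)
open Cfsg.Agent.Lib.Helper80.AS (tmat IsLeftFactor GramTensor)
open Cfsg.Agent.Lib.Helper49 (refl reflLin OG)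
open scoped MatrixGroups Matrix Kronecker

variable {ι : Type} [Fintype ι] [DecidableEq ι] {F : Type*} [Field F]

/-- INV. -/
theorem exists_involution [Fintype F] (h2 : (2 : F) ≠ 0) (Q : QuadraticForm F (ι → F)) (hQ : (polarBilin Q).Nondegenerate)
    (h3 : 3 ≤ Fintype.card ι) :
    ∃ g ∈ omegaGL Q, g * g = 1 ∧ ∃ u v : ι → F, u ≠ 0 ∧ (g : Matrix ι ι F) *ᵥ u = -u ∧
      ∀ w : ι → F, (g : Matrix ι ι F) *ᵥ w = -w → w ∈ Submodule.span F {u, v} := by
  obtain ⟨n, hn, b, horth, hne⟩ := Cfsg.Agent.Lib.Helper18.exists_orth_basis Q h2 hQ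
  subst hn
  set u := b ⟨0, by omega⟩ with hu
  set b1 := b ⟨1, by omega⟩ with hb1
  set b2 := b ⟨2, by omega⟩ with hb2
  have hQu : Q u ≠ 0 := hne _
  obtain ⟨x, y, hxy⟩ := Cfsg.Agent.Lib.Helper18.exists_binary_eq h2 (hne ⟨1, by omega⟩)
    (hne ⟨2, by omega⟩) (Q u)
  set v := x • b1 + y • b2 with hv
  have hQv : Q u = Q v := by
    rw [hv, QuadraticMap.map_add (⇑Q), QuadraticMap.map_smul, QuadraticMap.map_smul, polar_smul_left,
      polar_smul_right, horth _ _ (by simp [Fin.ext_iff]), ← hxy]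
    simp only [smul_eq_mul]
    ring
  have huv : polar Q u v = 0 := by
    rw [hv, polar_add_right, polar_smul_right, polar_smul_right, horth _ _ (by simp [Fin.ext_iff]),
      horth _ _ (by simp [Fin.ext_iff])]
    simp
  have hvu : polar Q v u = 0 := by rw [polar_comm]; exact huv
  set k : OG Q := refl Q u * refl Q v with hk
  have hkc : k ∈ commutator (OG Q) :=
    Cfsg.Agent.Lib.Helper49.refl_mul_refl_mem_commutator_of_eq Q hQ u v hQu hQv
  have hcomm : refl Q u * refl Q v = refl Q v * refl Q u := by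
    have h1 : refl Q u * refl Q v * (refl Q u)⁻¹ = refl Q v := by
      rw [Cfsg.Agent.Lib.Helper49.refl_conj]
      congr 1
      exact Cfsg.Agent.Lib.Helper49.reflLin_of_polar_eq_zero Q u v huv
    exact mul_inv_eq_iff_eq_mul.mp h1
  have hkk : k * k = 1 := by
    calc k * k = refl Q u * (refl Q v * refl Q u) * refl Q v := by rw [hk]; group
      _ = refl Q u * (refl Q u * refl Q v) * refl Q v := by rw [hcomm]
      _ = (refl Q u * refl Q u) * (refl Q v * refl Q v) := by group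
      _ = 1 := by
        rw [Cfsg.Agent.Lib.Helper49.refl_mul_self, Cfsg.Agent.Lib.Helper49.refl_mul_self, one_mul]
  have hkw : ∀ w, k.1 w = reflLin Q u (reflLin Q v w) := fun w => rfl
  refine ⟨Cfsg.Agent.Lib.Helper95.glEquiv.symm k.1, ?_, ?_, u, v, b.ne_zero _, ?_, ?_⟩
  · rw [Cfsg.Agent.Lib.Helper95.mem_omegaGL_iff, MulEquiv.apply_symm_apply]
    exact ⟨k, hkc, rfl⟩
  · rw [← map_mul]
    have : k.1 * k.1 = 1 := congrArg Subtype.val hkk
    rw [this, map_one]
  · rw [Cfsg.Agent.Lib.Helper95.glEquiv_symm_mulVec, hkw,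
      Cfsg.Agent.Lib.Helper49.reflLin_of_polar_eq_zero Q v u hvu,
      Cfsg.Agent.Lib.Helper49.reflLin_self Q u hQu]
  · intro w hw
    rw [Cfsg.Agent.Lib.Helper95.glEquiv_symm_mulVec, hkw, Cfsg.Agent.Lib.Helper49.reflLin_apply,
      Cfsg.Agent.Lib.Helper49.reflLin_apply] at hw
    set c := (Q v)⁻¹ * polar Q v w with hc
    set a := (Q u)⁻¹ * polar Q u (w - c • v) with ha
    rw [Submodule.mem_span_pair]
    refine ⟨2⁻¹ * a, 2⁻¹ * c, ?_⟩
    have h4 : (2 : F) • w = a • u + c • v := by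
      rw [two_smul]
      have h6 : w + w = w - (-w) := by abel
      rw [h6, ← hw]
      abel
    calc (2⁻¹ * a) • u + (2⁻¹ * c) • v = (2 : F)⁻¹ • (a • u + c • v) := by
          module
      _ = (2 : F)⁻¹ • ((2 : F) • w) := by rw [h4]
      _ = w := by rw [smul_smul, inv_mul_cancel₀ h2, one_smul]

end Cfsg.Agent.Lib.Helper5.O9
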