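import Cfsg.Agent.Lib.Helper5.O9.Defs
import Cfsg.Agent.Lib.Helper11.AschO.WIT
import Cfsg.Agent.Lib.Helper11.AschO.SING

/-! Sub-ladder O9P (S5835), rung PRD. -/

set_option autoImplicit false

namespace Cfsg.Agent.Lib.Helper5.O9

open Cfsg Cfsg.Geo QuadraticMap
open Cfsg.Agent.Lib.Helper11.AschO (gram perp)
open Cfsg.Agent.Lib.Helper80.AS (tmat IsLeftFactor GramTensor)
open scoped MatrixGroups Matrix Kronecker

variable {ι : Type} [Fintype ι] [DecidableEq ι] {F : Type*} [Field F]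

/-- PRD. -/
theorem not_le_decomp_big [Fintype F] (Q : QuadraticForm F (ι → F)) (hQ : (polarBilin Q).Nondegenerate)
    (h7 : 7 ≤ Fintype.card ι) {t d : ℕ} (hd : 3 ≤ d) (D : Fin t → Submodule F (ι → F))
    (hD : IsNondegenerateMDecomposition (polar Q) d D) : ¬ omegaGL Q ≤ decompositionStabilizer D := by
  intro hle
  have ht := hD.decomp.two_le
  set i0 : Fin t := ⟨0, by omega⟩ with hi0
  set i1 : Fin t := ⟨1, by omega⟩ with hi1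
  have h01 : i0 ≠ i1 := by
    intro h
    have := congrArg Fin.val h
    simp [hi0, hi1] at this
  obtain ⟨u₀, hu₀, hu₀0, hQ₀⟩ := Cfsg.Agent.Lib.Helper11.AschO.exists_singular_in Q (D i0)
    (by rw [hD.decomp.finrank_eq]; exact hd)
  obtain ⟨u₁, hu₁, hu₁0, hQ₁⟩ := Cfsg.Agent.Lib.Helper11.AschO.exists_singular_in Q (D i1)
    (by rw [hD.decomp.finrank_eq]; exact hd)
  obtain ⟨x₀, hx₀, hx₀u⟩ := (hD.nondegenerate i0 u₀ hu₀ hu₀0).1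
  obtain ⟨x₁, hx₁, hx₁u⟩ := (hD.nondegenerate i1 u₁ hu₁ hu₁0).1
  have hQa : Q (u₀ + u₁) = 0 := by
    rw [QuadraticMap.map_add Q u₀ u₁, hQ₀, hQ₁, hD.orthogonal i0 i1 h01 u₀ hu₀ u₁ hu₁]
    simp
  have hp0 : polar Q x₀ (u₀ + u₁) ≠ 0 := by
    rw [polar_add_right, hD.orthogonal i0 i1 h01 x₀ hx₀ u₁ hu₁, add_zero]
    exact hx₀u
  have hp1 : polar Q x₁ (u₀ + u₁) ≠ 0 := by
    rw [polar_add_right, hD.orthogonal i1 i0 h01.symm x₁ hx₁ u₀ hu₀, zero_add]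
    exact hx₁u
  have ha0 : u₀ + u₁ ≠ 0 := by
    intro h
    apply hp0
    rw [h, polar_zero_right]
  obtain ⟨g, hg, hgu⟩ := Cfsg.Agent.Lib.Helper11.AschO.omega_map_vec Q hQ h7 u₀ (u₀ + u₁) hu₀0 ha0
    (by rw [hQ₀, hQa])
  obtain ⟨σ, hσ⟩ := hle hg
  have hmem : u₀ + u₁ ∈ D (σ i0) := by
    rw [← hσ i0, ← hgu]
    exact ⟨u₀, hu₀, Matrix.toLin'_apply _ _⟩
  by_cases hj : σ i0 = i0
  · rw [hj] at hmem
    exact hp1 (hD.orthogonal i1 i0 h01.symm x₁ hx₁ _ hmem)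
  · exact hp0 (hD.orthogonal i0 (σ i0) (Ne.symm hj) x₀ hx₀ _ hmem)

end Cfsg.Agent.Lib.Helper5.O9
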