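import Cfsg.Agent.Lib.Helper5.O9.INV
import Cfsg.Agent.Lib.Helper5.O9.AUT2

/-! Sub-ladder O9P (S5835), rung PRK. -/

set_option autoImplicit false

namespace Cfsg.Agent.Lib.Helper5.O9

open Cfsg Cfsg.Geo QuadraticMap
open Cfsg.Agent.Lib.Helper11.AschO (gram perp)
open Cfsg.Agent.Lib.Helper80.AS (tmat IsLeftFactor GramTensor)
open scoped MatrixGroups Matrix Kronecker

variable {ι : Type} [Fintype ι] [DecidableEq ι] {F : Type*} [Field F]

/-- PRK. -/
theorem not_le_fieldNormalizer [Fintype F] (h2 : (2 : F) ≠ 0) (Q : QuadraticForm F (ι → F)) (hQ : (polarBilin Q).Nondegenerate)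
    (h3 : 3 ≤ Fintype.card ι) (K : Subalgebra F (Matrix ι ι F)) (hK : IsFieldSubalgebra 3 K) :
    ¬ omegaGL Q ≤ subalgebraNormalizer K := by
  classical
  intro hle
  obtain ⟨g, hg, hg2, u, v, hu, hgu, hW⟩ := exists_involution h2 Q hQ h3
  have hc := centralizes_of_sq K 3 (by decide) hK g (hle hg) hg2
  let φ : K →ₗ[F] (ι → F) :=
    { toFun := fun k => (k : Matrix ι ι F) *ᵥ u
      map_add' := fun k l => by
        change ((k : Matrix ι ι F) + (l : Matrix ι ι F)) *ᵥ u = _
        rw [Matrix.add_mulVec]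
      map_smul' := fun c k => by
        change (c • (k : Matrix ι ι F)) *ᵥ u = _
        rw [Matrix.smul_mulVec]
        rfl }
  have hφ : ∀ k : K, φ k = (k : Matrix ι ι F) *ᵥ u := fun _ => rfl
  have hφW : ∀ k, φ k ∈ Submodule.span F ({u, v} : Set (ι → F)) := by
    intro k
    apply hW
    rw [hφ, Matrix.mulVec_mulVec, hc k k.2, ← Matrix.mulVec_mulVec, hgu, Matrix.mulVec_neg]
  have hinj : Function.Injective φ := by
    rw [injective_iff_map_eq_zero]
    intro k hk
    by_contra hne
    obtain ⟨y, hy, hxy⟩ := hK.inv k k.2 (fun h => hne (Subtype.ext h))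
    apply hu
    have h4 : (y * (k : Matrix ι ι F)) *ᵥ u = u := by
      rw [hK.comm y hy k k.2, hxy, Matrix.one_mulVec]
    rw [← h4, ← Matrix.mulVec_mulVec, ← hφ, hk, Matrix.mulVec_zero]
  have h4 : Module.finrank F K ≤ Module.finrank F (Submodule.span F ({u, v} : Set (ι → F))) :=
    LinearMap.finrank_le_finrank_of_injective (f := φ.codRestrict _ hφW)
      (fun a b hab => hinj (congrArg Subtype.val hab))
  have h5 : Module.finrank F (Submodule.span F ({u, v} : Set (ι → F))) ≤ 2 := by
    have h6 := finrank_span_finset_le_card (R := F) ({u, v} : Finset (ι → F))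
    rw [Finset.coe_pair] at h6
    exact h6.trans Finset.card_le_two
  rw [hK.finrank_eq] at h4
  omega

end Cfsg.Agent.Lib.Helper5.O9
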