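import Cfsg.Agent.Lib.Helper5.O9.Defs
import Cfsg.Agent.Lib.Helper11.AschO.SING

/-! Sub-ladder O9P (S5835), rung PWS. -/

set_option autoImplicit false

namespace Cfsg.Agent.Lib.Helper5.O9

open Cfsg Cfsg.Geo QuadraticMap
open Cfsg.Agent.Lib.Helper11.AschO (gram perp)
open Cfsg.Agent.Lib.Helper80.AS (tmat IsLeftFactor GramTensor)
open scoped MatrixGroups Matrix Kronecker

variable {ι : Type} [Fintype ι] [DecidableEq ι] {F : Type*} [Field F]

/-- PWS. -/
theorem exists_vectors [Fintype F] (f₁ : (Fin 3 → F) → (Fin 3 → F) → F) (hf₁ : IsSymmetricForm f₁) :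
    ∃ a₀ a₂ : Fin 3 → F, f₁ a₀ a₀ = 0 ∧ f₁ a₀ a₂ = 0 ∧ LinearIndependent F ![a₀, a₂] := by
  let B : LinearMap.BilinMap F (Fin 3 → F) F :=
    LinearMap.mk₂ F f₁ hf₁.bilinear.add_left hf₁.bilinear.smul_left hf₁.bilinear.add_right
      hf₁.bilinear.smul_right
  have hB : ∀ x y, B x y = f₁ x y := fun x y => rfl
  obtain ⟨a₀, -, ha0, hQ⟩ := Cfsg.Agent.Lib.Helper11.AschO.exists_singular_in
    (B.toQuadraticMap) (⊤ : Submodule F (Fin 3 → F)) (by rw [finrank_top]; simp)
  rw [LinearMap.BilinMap.toQuadraticMap_apply, hB] at hQ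
  have hker : 2 ≤ Module.finrank F (LinearMap.ker (B a₀)) := by
    have h1 := LinearMap.finrank_range_add_finrank_ker (B a₀)
    have h2 : Module.finrank F (LinearMap.range (B a₀)) ≤ 1 := by
      have := Submodule.finrank_le (LinearMap.range (B a₀))
      rwa [Module.finrank_self] at this
    have h3 : Module.finrank F (Fin 3 → F) = 3 := by simp
    omega
  have hnle : ¬ LinearMap.ker (B a₀) ≤ Submodule.span F {a₀} := by
    intro hle
    have h1 := Submodule.finrank_mono hle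
    rw [finrank_span_singleton ha0] at h1
    omega
  obtain ⟨a₂, ha2, hn⟩ := SetLike.not_le_iff_exists.1 hnle
  refine ⟨a₀, a₂, hQ, ?_, ?_⟩
  · have := LinearMap.mem_ker.1 ha2
    rwa [hB] at this
  · rw [LinearIndependent.pair_iff' ha0]
    intro a ha
    exact hn (Submodule.mem_span_singleton.2 ⟨a, ha⟩)

end Cfsg.Agent.Lib.Helper5.O9
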