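import Cfsg.Agent.Lib.Helper5.O9.PWP
import Cfsg.Agent.Lib.Helper5.O9.PWN
import Cfsg.Agent.Lib.Helper5.O9.PWF
import Cfsg.Agent.Lib.Helper5.O9.PWS
import Cfsg.Agent.Lib.Helper11.AschO.WIT

/-! Sub-ladder O9P (S5835), rung PRW. -/

set_option autoImplicit false

namespace Cfsg.Agent.Lib.Helper5.O9

open Cfsg Cfsg.Geo QuadraticMap
open Cfsg.Agent.Lib.Helper11.AschO (gram perp)
open Cfsg.Agent.Lib.Helper80.AS (tmat IsLeftFactor GramTensor)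
open scoped MatrixGroups Matrix Kronecker

variable {ι : Type} [Fintype ι] [DecidableEq ι] {F : Type*} [Field F]

/-- PRW (from PWP PWN PWF PWS + `AschO.omega_map_vec`).  `a₀, a₂` from PWS.  `z := P (pv a₀ a₀ ∘ e)` is pure, `y := P ((pv a₀ a₂ + pv a₂ a₀) ∘ e)` is not (PWN with `![a₀, a₂]`, `![a₂, a₀]`).
`2 Q w = polar Q w w`; PWF + bilinearity of `polar Q`: `polar Q z z = c f₁(a₀,a₀)² = 0`, `polar Q y y = c (f₁(a₀,a₀) f₁(a₂,a₂) + 2 f₁(a₀,a₂) f₁(a₂,a₀) + f₁(a₂,a₂) f₁(a₀,a₀)) = 0`.  `z ≠ 0` (`a₀ i ≠ 0` for some `i`; `P`, `∘ e` injective);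
`y ≠ 0` (`0 = P (pv 0 0 ∘ e)` is pure).  `g ∈ Ω` with `g z = y`; PWP: `y` pure.  Contradiction. -/
theorem not_le_tensorWreath [Fintype F] (h2 : (2 : F) ≠ 0) (Q : QuadraticForm F (ι → F)) (hQ : (polarBilin Q).Nondegenerate)
    (h7 : 7 ≤ Fintype.card ι) (e : ι ≃ (Fin 2 → Fin 3)) (P : GL ι F) (f₁ : (Fin 3 → F) → (Fin 3 → F) → F)
    (hf₁ : IsSymmetricForm f₁) (hs : IsTensorPowerFormStructure id (polar Q) f₁ e P) :
    ¬ omegaGL Q ≤ tensorWreathSubgroup 3 2 e P := by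
  intro hle
  obtain ⟨c, hc, hform⟩ := hs
  obtain ⟨a₀, a₂, h00, h02, hli⟩ := exists_vectors f₁ hf₁
  have hP := form_pure (polar Q) f₁ hf₁.bilinear e P c hform
  have hzp : IsPure e P ((P : Matrix ι ι F) *ᵥ (pv a₀ a₀ ∘ e)) := ⟨a₀, a₀, rfl⟩
  have hli' : LinearIndependent F ![a₂, a₀] := by
    rw [LinearIndependent.pair_iff] at hli ⊢
    intro s t hst
    have := hli t s (by rw [add_comm]; exact hst)
    exact ⟨this.2, this.1⟩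
  have hyn : ¬ IsPure e P ((P : Matrix ι ι F) *ᵥ ((pv a₀ a₂ + pv a₂ a₀) ∘ e)) :=
    not_pure_add e P a₀ a₂ a₂ a₀ hli hli'
  have hQ2 : ∀ w, polar Q w w = 0 → Q w = 0 := by
    intro w hw
    rw [QuadraticMap.polar_self, nsmul_eq_mul] at hw
    rcases mul_eq_zero.1 hw with h | h
    · exact absurd (by exact_mod_cast h) h2
    · exact h
  have hQz : Q ((P : Matrix ι ι F) *ᵥ (pv a₀ a₀ ∘ e)) = 0 := hQ2 _ (by rw [hP, h00]; ring)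
  have hy' : (P : Matrix ι ι F) *ᵥ ((pv a₀ a₂ + pv a₂ a₀) ∘ e) =
      (P : Matrix ι ι F) *ᵥ (pv a₀ a₂ ∘ e) + (P : Matrix ι ι F) *ᵥ (pv a₂ a₀ ∘ e) := by
    rw [← Matrix.mulVec_add]
    rfl
  have hQy : Q ((P : Matrix ι ι F) *ᵥ ((pv a₀ a₂ + pv a₂ a₀) ∘ e)) = 0 := hQ2 _ (by
    rw [hy', QuadraticMap.polar_add_left, QuadraticMap.polar_add_right, QuadraticMap.polar_add_right,
      hP, hP, hP, hP, h00, h02, hf₁.symm a₂ a₀, h02]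
    ring)
  have hy0 : (P : Matrix ι ι F) *ᵥ ((pv a₀ a₂ + pv a₂ a₀) ∘ e) ≠ 0 := by
    intro h0
    apply hyn
    refine ⟨0, 0, ?_⟩
    rw [h0]
    have h1 : pv (0 : Fin 3 → F) 0 ∘ e = 0 := by
      ext i
      simp [pv]
    rw [h1, Matrix.mulVec_zero]
  have hz0 : (P : Matrix ι ι F) *ᵥ (pv a₀ a₀ ∘ e) ≠ 0 := by
    intro h0
    have h1 : ((P⁻¹ : GL ι F) : Matrix ι ι F) *ᵥ ((P : Matrix ι ι F) *ᵥ (pv a₀ a₀ ∘ e)) = pv a₀ a₀ ∘ e := by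
      rw [Matrix.mulVec_mulVec, ← Units.val_mul, inv_mul_cancel, Units.val_one, Matrix.one_mulVec]
    rw [h0, Matrix.mulVec_zero] at h1
    have ha0 : a₀ ≠ 0 := hli.ne_zero 0
    apply ha0
    funext i
    have h3 := congrFun h1 (e.symm (fun _ => i))
    simp only [Pi.zero_apply, Function.comp_apply, Equiv.apply_symm_apply, pv] at h3
    exact (mul_self_eq_zero.1 h3.symm)
  obtain ⟨g, hg, hgz⟩ := Cfsg.Agent.Lib.Helper11.AschO.omega_map_vec Q hQ h7 _ _ hz0 hy0 (by rw [hQz, hQy])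
  exact hyn (hgz ▸ pure_of_mem e P g (hle hg) _ hzp)

end Cfsg.Agent.Lib.Helper5.O9
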